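import Cfsg.Agent.H589.CosetReg
import Mathlib.GroupTheory.SchurZassenhaus

/-!
# Groups with as few `p`-regular elements as possible

If `G` has exactly `|G|_{p'}` elements of order prime to `p`, then so do normal subgroups and
quotients, and (reduction to simple groups) the `p`-regular elements form a normal subgroup as soon
as no non-abelian simple group in the class considered has this property.
-/

set_option autoImplicit false
set_option linter.unusedSectionVars false

open Cfsg

namespace Cfsg.Agent.H589.RegCount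

open Cfsg.Agent.H589.CosetReg

universe u

/-- The number of elements of order prime to `p`. -/
noncomputable def cnt (p : ℕ) (G : Type u) [Group G] : ℕ := Nat.card {g : G // ¬ p ∣ orderOf g}

/-- The `p'`-part of `n`. -/
def pp (p n : ℕ) : ℕ := n / p ^ n.factorization p

theorem pp_mul (p a b : ℕ) : pp p (a * b) = pp p a * pp p b := Nat.ordCompl_mul a b p

variable {G : Type u} [Group G] [Finite G] {p : ℕ} [Fact p.Prime]

theorem pp_pos (n : ℕ) (hn : n ≠ 0) : 0 < pp p n := Nat.ordCompl_pos p hn

theorem cnt_mul_equiv {H : Type*} [Group H] {K : Type*} [Group K] (e : H ≃* K) :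
    Nat.card {g : H // ¬ p ∣ orderOf g} = Nat.card {g : K // ¬ p ∣ orderOf g} := by
  refine Nat.card_congr (Equiv.subtypeEquiv e.toEquiv fun x => ?_)
  have : orderOf (e.toEquiv x) = orderOf x := MulEquiv.orderOf_eq e x
  rw [this]

theorem cnt_subgroup (N : Subgroup G) :
    Nat.card {x : G // x ∈ N ∧ ¬ p ∣ orderOf x} = cnt p N := by
  unfold cnt
  refine Nat.card_congr ⟨fun x => ⟨⟨x.1, x.2.1⟩, ?_⟩, fun x => ⟨x.1.1, x.1.2, ?_⟩, ?_, ?_⟩
  · have := x.2.2
    rwa [← Subgroup.orderOf_coe]
  · have := x.2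
    rwa [← Subgroup.orderOf_coe] at this
  · intro x; rfl
  · intro x; rfl

/-- The number of elements in a coset. -/
noncomputable def cc (p : ℕ) (N : Subgroup G) (g : G ⧸ N) : ℕ :=
  Nat.card {x : G // (x : G ⧸ N) = g ∧ ¬ p ∣ orderOf x}

theorem cc_one (N : Subgroup G) [N.Normal] : cc p N 1 = cnt p N := by
  rw [← cnt_subgroup]
  unfold cc
  refine Nat.card_congr (Equiv.subtypeEquivRight fun x => ?_)
  rw [QuotientGroup.eq_one_iff]

theorem cnt_eq_sum (N : Subgroup G) [N.Normal] [Fintype (G ⧸ N)] :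
    cnt p G = ∑ g : G ⧸ N, cc p N g := by
  classical
  have := Fintype.ofFinite G
  unfold cnt cc
  rw [Nat.card_eq_fintype_card, Fintype.card_subtype]
  rw [Finset.card_eq_sum_card_fiberwise (f := fun x : G => (x : G ⧸ N)) (t := Finset.univ)
    (fun _ _ => Finset.mem_coe.2 (Finset.mem_univ _))]
  refine Finset.sum_congr rfl fun g _ => ?_
  rw [Nat.card_eq_fintype_card, Fintype.card_subtype]
  congr 1
  ext x
  simp only [Finset.mem_filter, Finset.mem_univ, true_and]
  exact and_comm

theorem cc_ge (N : Subgroup G) [N.Normal] {g : G ⧸ N} (hg : ¬ p ∣ orderOf g) :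
    pp p (Nat.card N) ≤ cc p N g := by
  obtain ⟨x, hx, hx'⟩ := exists_regular_lift p N g hg
  apply Nat.le_of_dvd _ (dvd_card_coset p N g)
  have : Nonempty {x : G // (x : G ⧸ N) = g ∧ ¬ p ∣ orderOf x} := ⟨⟨x, hx, hx'⟩⟩
  exact Nat.card_pos

/-- `|G|_{p'}` is at most the number of `p`-regular elements. -/
theorem pp_le_cnt : pp p (Nat.card G) ≤ cnt p G := by
  have h := cc_ge (p := p) (⊤ : Subgroup G) (g := 1) (by
    rw [orderOf_one]
    exact (Fact.out : p.Prime).one_lt.ne' ∘ Nat.dvd_one.1)
  rw [cc_one, Subgroup.card_top] at h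
  refine h.trans (le_of_eq ?_)
  unfold cnt
  exact cnt_mul_equiv Subgroup.topEquiv

/-- Normal subgroups and quotients. -/
theorem step (h : cnt p G = pp p (Nat.card G)) (N : Subgroup G) [N.Normal] :
    cnt p N = pp p (Nat.card N) ∧ cnt p (G ⧸ N) = pp p (Nat.card (G ⧸ N)) := by
  classical
  have := Fintype.ofFinite G
  have := Fintype.ofFinite (G ⧸ N)
  have hp1 : ¬ p ∣ orderOf (1 : G ⧸ N) := by
    rw [orderOf_one]
    exact (Fact.out : p.Prime).one_lt.ne' ∘ Nat.dvd_one.1
  have hcard : pp p (Nat.card G) = pp p (Nat.card (G ⧸ N)) * pp p (Nat.card N) := by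
    rw [← pp_mul, ← Subgroup.card_eq_card_quotient_mul_card_subgroup]
  have hN : 0 < pp p (Nat.card N) := pp_pos _ Nat.card_pos.ne'
  set S : Finset (G ⧸ N) := Finset.univ.filter fun g => ¬ p ∣ orderOf g with hS
  have hSc : S.card = cnt p (G ⧸ N) := by
    unfold cnt
    rw [Nat.card_eq_fintype_card, Fintype.card_subtype]
  have h1 : ∑ g ∈ S, cc p N g ≤ cnt p G := by
    rw [cnt_eq_sum N]
    exact Finset.sum_le_sum_of_subset (Finset.subset_univ _)
  have h2 : ∀ g ∈ S, pp p (Nat.card N) ≤ cc p N g := by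
    intro g hg
    exact cc_ge N (Finset.mem_filter.1 hg).2
  have h3 : cnt p (G ⧸ N) * pp p (Nat.card N) ≤ ∑ g ∈ S, cc p N g := by
    rw [← hSc, ← smul_eq_mul]
    exact Finset.card_nsmul_le_sum _ _ _ h2
  have h4 : pp p (Nat.card (G ⧸ N)) ≤ cnt p (G ⧸ N) := pp_le_cnt
  have h5 : cnt p (G ⧸ N) = pp p (Nat.card (G ⧸ N)) := by
    apply le_antisymm _ h4
    have h6 := h3.trans (h1.trans (le_of_eq (h.trans hcard)))
    exact Nat.le_of_mul_le_mul_right h6 hN
  refine ⟨?_, h5⟩
  apply le_antisymm _ pp_le_cnt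
  by_contra hcon
  rw [not_le, ← cc_one] at hcon
  have h7 : ∑ g ∈ S, pp p (Nat.card N) < ∑ g ∈ S, cc p N g :=
    Finset.sum_lt_sum h2 ⟨1, Finset.mem_filter.2 ⟨Finset.mem_univ _, hp1⟩, hcon⟩
  rw [Finset.sum_const, smul_eq_mul, hSc, h5, ← hcard, ← h] at h7
  exact absurd h1 (not_le.2 h7)

/-- A subgroup of order `|G|_{p'}` is normal. -/
theorem normal_of_card (h : cnt p G = pp p (Nat.card G)) (H : Subgroup G)
    (hH : Nat.card H = pp p (Nat.card G)) : ∀ x : G, x ∈ H ↔ ¬ p ∣ orderOf x := by
  classical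
  have hp : p.Prime := Fact.out
  have h1 : (H : Set G) ⊆ {x : G | ¬ p ∣ orderOf x} := by
    intro x hx hd
    have h2 : orderOf x ∣ Nat.card H := by
      have := orderOf_dvd_natCard (⟨x, hx⟩ : H)
      rwa [← Subgroup.orderOf_coe] at this
    have h3 : p ∣ pp p (Nat.card G) := hH ▸ (hd.trans h2)
    exact Nat.not_dvd_ordCompl hp Nat.card_pos.ne' h3
  have h2 : (H : Set G) = {x : G | ¬ p ∣ orderOf x} := by
    apply Set.eq_of_subset_of_ncard_le h1 _ (Set.toFinite _)
    have e1 : (H : Set G).ncard = Nat.card H := rfl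
    have e2 : {x : G | ¬ p ∣ orderOf x}.ncard = cnt p G := rfl
    rw [e1, e2, hH, h]
  intro x
  exact Set.ext_iff.1 h2 x

theorem normal_of_mem_iff {H : Subgroup G} (h : ∀ x : G, x ∈ H ↔ ¬ p ∣ orderOf x) : H.Normal := by
  constructor
  intro n hn g
  rw [h] at hn ⊢
  have : orderOf (g * n * g⁻¹) = orderOf n := by
    have := orderOf_injective (MulAut.conj g).toMonoidHom (MulAut.conj g).injective n
    simpa using this
  rwa [this]

/-- Gluing: if a normal subgroup `N` and the quotient `G ⧸ N` both have normal `p`-complements, then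
`G` has a subgroup of order `|G|_{p'}`. -/
theorem exists_hall (N : Subgroup G) [N.Normal] (K : Subgroup N)
    (hK : ∀ x : N, x ∈ K ↔ ¬ p ∣ orderOf x) (hKc : Nat.card K = pp p (Nat.card N))
    (L : Subgroup (G ⧸ N)) (hLc : Nat.card L = pp p (Nat.card (G ⧸ N))) :
    ∃ H : Subgroup G, Nat.card H = pp p (Nat.card G) := by
  classical
  have hp : p.Prime := Fact.out
  -- K as a normal subgroup of G
  set K' : Subgroup G := K.map N.subtype with hK'
  have hK'mem : ∀ x : G, x ∈ K' ↔ x ∈ N ∧ ¬ p ∣ orderOf x := by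
    intro x
    constructor
    · rintro ⟨y, hy, rfl⟩
      refine ⟨y.2, ?_⟩
      have := (hK y).1 hy
      rwa [← Subgroup.orderOf_coe] at this
    · rintro ⟨hx, hx'⟩
      refine ⟨⟨x, hx⟩, (hK _).2 ?_, rfl⟩
      rwa [← Subgroup.orderOf_coe]
  have hK'n : K'.Normal := by
    constructor
    intro n hn g
    rw [hK'mem] at hn ⊢
    refine ⟨Subgroup.Normal.conj_mem inferInstance n hn.1 g, ?_⟩
    have : orderOf (g * n * g⁻¹) = orderOf n := by
      have := orderOf_injective (MulAut.conj g).toMonoidHom (MulAut.conj g).injective n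
      simpa using this
    rw [this]
    exact hn.2
  have hK'c : Nat.card K' = pp p (Nat.card N) := by
    rw [← hKc]
    exact Nat.card_congr (K.equivMapOfInjective N.subtype N.subtype_injective).toEquiv.symm
  -- L as a subgroup of G
  set L' : Subgroup G := L.comap (QuotientGroup.mk' N) with hL'
  have hNL : N ≤ L' := by
    intro x hx
    rw [hL', Subgroup.mem_comap, QuotientGroup.mk'_apply, (QuotientGroup.eq_one_iff x).2 hx]
    exact L.one_mem
  have hKN : K' ≤ N := fun x hx => ((hK'mem x).1 hx).1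
  have hL'c : Nat.card L' = Nat.card N * pp p (Nat.card (G ⧸ N)) := by
    have h1 : L'.index = L.index :=
      Subgroup.index_comap_of_surjective L (QuotientGroup.mk'_surjective N)
    have h2 := L'.card_mul_index
    have h3 := L.card_mul_index
    have h4 := Subgroup.card_eq_card_quotient_mul_card_subgroup N
    rw [h1] at h2
    have h5 : 0 < L.index := Nat.pos_of_ne_zero Subgroup.index_ne_zero_of_finite
    rw [← hLc]
    apply Nat.eq_of_mul_eq_mul_right h5
    rw [h2, h4, ← h3]
    ring
  -- pass to G ⧸ K'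
  let π := QuotientGroup.mk' K'
  have hker : π.ker = K' := QuotientGroup.ker_mk' K'
  have hcard_map : ∀ A : Subgroup G, K' ≤ A → Nat.card (A.map π) * Nat.card K' = Nat.card A := by
    intro A hA
    have h1 := Subgroup.card_mul_index (A.map π)
    have h2 : (A.map π).index = A.index := by
      rw [Subgroup.index_map_eq A (QuotientGroup.mk'_surjective K')]
      rw [hker]; exact hA
    have h3 := A.card_mul_index
    have h4 := Subgroup.card_eq_card_quotient_mul_card_subgroup K'
    have h5 : 0 < A.index := Nat.pos_of_ne_zero Subgroup.index_ne_zero_of_finite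
    apply Nat.eq_of_mul_eq_mul_right h5
    rw [h3, h4, ← h1, h2]
    ring
  set Nb : Subgroup (G ⧸ K') := N.map π with hNb
  set Lb : Subgroup (G ⧸ K') := L'.map π with hLb
  have hNLb : Nb ≤ Lb := Subgroup.map_mono hNL
  have hNbn : Nb.Normal := Subgroup.Normal.map inferInstance _ (QuotientGroup.mk'_surjective K')
  have hK0 : 0 < pp p (Nat.card N) := pp_pos _ Nat.card_pos.ne'
  have hNbc : Nat.card Nb = p ^ (Nat.card N).factorization p := by
    have h1 := hcard_map N hKN
    rw [hK'c] at h1
    apply Nat.eq_of_mul_eq_mul_right hK0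
    rw [h1]
    exact (Nat.ordProj_mul_ordCompl_eq_self (Nat.card N) p).symm
  have hLbc : Nat.card Lb = Nat.card Nb * pp p (Nat.card (G ⧸ N)) := by
    have h1 := hcard_map L' (hKN.trans hNL)
    have h2 := hcard_map N hKN
    have h0 : 0 < Nat.card K' := Nat.card_pos
    apply Nat.eq_of_mul_eq_mul_right h0
    rw [h1, hL'c, ← h2]
    ring
  have hsub : Nat.card (Nb.subgroupOf Lb) = Nat.card Nb :=
    Nat.card_congr (Subgroup.subgroupOfEquivOfLe hNLb).toEquiv
  have hidx : (Nb.subgroupOf Lb).index = pp p (Nat.card (G ⧸ N)) := by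
    have h1 := (Nb.subgroupOf Lb).card_mul_index
    rw [hsub, hLbc] at h1
    exact Nat.eq_of_mul_eq_mul_left Nat.card_pos h1
  have hcop : Nat.Coprime (Nat.card (Nb.subgroupOf Lb)) (Nb.subgroupOf Lb).index := by
    rw [hsub, hidx, hNbc]
    exact Nat.Coprime.pow_left _ (Nat.coprime_ordCompl hp Nat.card_pos.ne')
  have : (Nb.subgroupOf Lb).Normal := Subgroup.Normal.subgroupOf hNbn Lb
  obtain ⟨H₀, hH₀⟩ := Subgroup.exists_right_complement'_of_coprime hcop
  have hH₀c : Nat.card H₀ = pp p (Nat.card (G ⧸ N)) := by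
    rw [← hH₀.symm.index_eq_card, hidx]
  refine ⟨(H₀.map Lb.subtype).comap π, ?_⟩
  have h1 : Nat.card (H₀.map Lb.subtype) = pp p (Nat.card (G ⧸ N)) := by
    rw [← hH₀c]
    exact Nat.card_congr (H₀.equivMapOfInjective Lb.subtype Lb.subtype_injective).toEquiv.symm
  have h2 : Nat.card ((H₀.map Lb.subtype).comap π) =
      Nat.card (H₀.map Lb.subtype) * Nat.card K' := by
    have h3 : ((H₀.map Lb.subtype).comap π).index = (H₀.map Lb.subtype).index :=
      Subgroup.index_comap_of_surjective _ (QuotientGroup.mk'_surjective K')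
    have h4 := ((H₀.map Lb.subtype).comap π).card_mul_index
    have h5 := (H₀.map Lb.subtype).card_mul_index
    have h6 := Subgroup.card_eq_card_quotient_mul_card_subgroup K'
    rw [h3] at h4
    have h7 : 0 < (H₀.map Lb.subtype).index :=
      Nat.pos_of_ne_zero Subgroup.index_ne_zero_of_finite
    apply Nat.eq_of_mul_eq_mul_right h7
    rw [h4, h6, ← h5]
    ring
  rw [h2, h1, hK'c, ← pp_mul, ← Subgroup.card_eq_card_quotient_mul_card_subgroup]

/-- **Reduction to simple groups.**  Let `C` be a property of orders inherited by divisors.  If no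
non-abelian simple group `S` of order divisible by `p` with `C |S|` has exactly `|S|_{p'}` elements
of order prime to `p`, then every group `G` with `C |G|` with exactly `|G|_{p'}` elements of order
prime to `p` has a normal `p`-complement. -/
theorem exists_normal (C : ℕ → Prop) (hC : ∀ a b : ℕ, a ∣ b → C b → C a)
    (hS : ∀ (S : Type u) [Group S] [Finite S] [IsSimpleGroup S], (∃ a b : S, a * b ≠ b * a) →
      p ∣ Nat.card S → C (Nat.card S) → cnt p S ≠ pp p (Nat.card S)) :
    ∀ (n : ℕ) (G : Type u) [Group G] [Finite G], Nat.card G = n → C (Nat.card G) →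
      cnt p G = pp p (Nat.card G) →
      ∃ H : Subgroup G, H.Normal ∧ Nat.card H = pp p (Nat.card G) := by
  have hp : p.Prime := Fact.out
  intro n
  induction n using Nat.strong_induction_on with
  | _ n ih =>
  intro G _ _ hn hCG hcount
  by_cases hpG : p ∣ Nat.card G
  swap
  · refine ⟨⊤, inferInstance, ?_⟩
    rw [Subgroup.card_top]
    unfold pp
    rw [Nat.factorization_eq_zero_of_not_dvd hpG, pow_zero, Nat.div_one]
  by_cases hsimple : ∃ N : Subgroup G, N.Normal ∧ N ≠ ⊥ ∧ N ≠ ⊤
  · obtain ⟨N, hN, hNb, hNt⟩ := hsimple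
    obtain ⟨h1, h2⟩ := step hcount N
    have hNlt : Nat.card N < n := by
      rw [← hn]
      refine lt_of_le_of_ne (Nat.le_of_dvd Nat.card_pos N.card_subgroup_dvd_card) ?_
      intro h
      exact hNt ((Subgroup.card_eq_iff_eq_top N).1 h)
    have hQlt : Nat.card (G ⧸ N) < n := by
      have h3 := Subgroup.card_eq_card_quotient_mul_card_subgroup N
      have h4 : 1 < Nat.card N := by
        rw [Subgroup.one_lt_card_iff_ne_bot]
        exact hNb
      have h5 : 0 < Nat.card (G ⧸ N) := Nat.card_pos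
      rw [← hn, h3]
      exact lt_mul_of_one_lt_right h5 h4
    obtain ⟨K, hKn, hKc⟩ := ih _ hNlt N rfl (hC _ _ N.card_subgroup_dvd_card hCG) h1
    obtain ⟨L, hLn, hLc⟩ := ih _ hQlt (G ⧸ N) rfl
      (hC _ _ (Subgroup.card_quotient_dvd_card N) hCG) h2
    obtain ⟨H, hH⟩ := exists_hall N K (normal_of_card h1 K hKc) hKc L hLc
    exact ⟨H, normal_of_mem_iff (normal_of_card hcount H hH), hH⟩
  · have hnt : Nontrivial G := by
      rw [← Finite.one_lt_card_iff_nontrivial]
      exact lt_of_lt_of_le hp.one_lt (Nat.le_of_dvd Nat.card_pos hpG)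
    have hsim : IsSimpleGroup G := by
      refine ⟨fun N hN => ?_⟩
      by_contra hcon
      rw [not_or] at hcon
      exact hsimple ⟨N, hN, hcon.1, hcon.2⟩
    by_cases hab : ∃ a b : G, a * b ≠ b * a
    · exact absurd hcount (hS G hab hpG hCG)
    · push Not at hab
      have hprime : (Nat.card G).Prime := by
        let _ : CommGroup G := { (inferInstance : Group G) with mul_comm := hab }
        exact IsSimpleGroup.prime_card
      have hpeq : p = Nat.card G := (Nat.prime_dvd_prime_iff_eq hp hprime).1 hpG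
      refine ⟨⊥, inferInstance, ?_⟩
      rw [Subgroup.card_bot, ← hpeq]
      unfold pp
      rw [hp.factorization_self, pow_one, Nat.div_self hp.pos]

end Cfsg.Agent.H589.RegCount
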