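import Cfsg.Agent.H589.SmallDegree
import Cfsg.Agent.Blocks.Basic

/-!
# Degrees smaller than `p`

If all irreducible characters of `G` have degree less than the prime `p`, then `G` has a normal
abelian Sylow `p`-subgroup.
-/

set_option autoImplicit false
set_option linter.unusedSectionVars false

open Cfsg Complex
open scoped Pointwise

namespace Cfsg.Agent.H589.SmallDegree

open Cfsg.Agent.Characters.Core
open Cfsg.Agent.Blocks.Basic (charDegree_of_eq irr_one_eq_charDegree charDegree_pos)

universe u

/-- The degree hypothesis for subgroups. -/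
theorem lt_subgroup {G : Type u} [Group G] [Finite G] {p : ℕ}
    (h : ∀ χ : IrrCharacter G, charDegree (χ : G → ℂ) < p) (H : Subgroup G) :
    ∀ χ : IrrCharacter H, charDegree (χ : H → ℂ) < p := by
  intro θ
  have := Fintype.ofFinite G
  have := Fintype.ofFinite H
  obtain ⟨χ, hχ, h1⟩ := Cfsg.Agent.CharDeep.PowerDegrees.exists_irr_over H θ.2
  exact (degree_le_of_over H (isIrr_isCharacter hχ) θ.2 h1 (irr_one_eq_charDegree hχ)
    (irr_one_eq_charDegree θ.2)).trans_lt (h ⟨χ, hχ⟩)

/-- The degree hypothesis for quotients. -/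
theorem lt_quotient {G : Type u} [Group G] {p : ℕ}
    (h : ∀ χ : IrrCharacter G, charDegree (χ : G → ℂ) < p) (N : Subgroup G) [N.Normal] :
    ∀ χ : IrrCharacter (G ⧸ N), charDegree (χ : G ⧸ N → ℂ) < p := by
  intro χ
  have h1 := isIrr_comp (QuotientGroup.mk' N) (QuotientGroup.mk'_surjective N) χ.2
  have h2 := h ⟨_, h1⟩
  have h3 : charDegree ((χ : G ⧸ N → ℂ) ∘ (QuotientGroup.mk' N)) = charDegree (χ : G ⧸ N → ℂ) := by
    apply charDegree_of_eq
    rw [Function.comp_apply, map_one]
    exact irr_one_eq_charDegree χ.2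
  rw [← h3]
  exact h2

/-- `p`-groups all of whose degrees are smaller than `p` are abelian. -/
theorem comm_of_lt {G : Type u} [Group G] [Finite G] {p : ℕ} [hp : Fact p.Prime]
    (hG : IsPGroup p G) (h : ∀ χ : IrrCharacter G, charDegree (χ : G → ℂ) < p) (a b : G) :
    a * b = b * a := by
  refine Cfsg.Agent.CharDeep.PowerDegrees.comm_of_forall_linear (fun χ => ?_) a b
  obtain ⟨n, hn⟩ := (IsPGroup.iff_card (p := p)).1 hG
  have h1 : charDegree (χ : G → ℂ) ∣ p ^ n := hn ▸ Cfsg.Agent.Blocks.Knorr.charDegree_dvd χ.2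
  obtain ⟨k, -, hk⟩ := (Nat.dvd_prime_pow hp.out).1 h1
  have h2 := h χ
  rw [hk] at h2
  have hk0 : k = 0 := by
    by_contra h0
    have : p ^ 1 ≤ p ^ k := Nat.pow_le_pow_right hp.out.pos (by omega)
    rw [pow_one] at this
    omega
  rw [irr_one_eq_charDegree χ.2, hk, hk0]
  simp

theorem normal_of_lt (p : ℕ) [hp : Fact p.Prime] : ∀ (n : ℕ) (G : Type u) [Group G] [Finite G],
    Nat.card G = n → (∀ χ : IrrCharacter G, charDegree (χ : G → ℂ) < p) →
    ∀ P : Sylow p G, (P : Subgroup G).Normal := by
  intro n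
  induction n using Nat.strong_induction_on with
  | _ n ih =>
  intro G _ _ hcard h P
  classical
  have hcomm : ∀ Q : Sylow p G, ∀ a ∈ Q, ∀ b ∈ Q, a * b = b * a := by
    intro Q a ha b hb
    have := comm_of_lt Q.2 (lt_subgroup h Q) ⟨a, ha⟩ ⟨b, hb⟩
    exact congrArg Subtype.val this
  by_cases hbot : (P : Subgroup G) = ⊥
  · rw [hbot]; infer_instance
  by_cases hcen : ∃ u ∈ P, u ≠ 1 ∧ u ∈ Subgroup.center G
  · obtain ⟨u, hu, hu1, huc⟩ := hcen
    let Z : Subgroup G := Subgroup.zpowers u
    have hZc : Z ≤ Subgroup.center G := by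
      rw [Subgroup.zpowers_le]; exact huc
    have hZn : Z.Normal := ⟨fun z hz g => by
      have := Subgroup.mem_center_iff.1 (hZc hz) g
      rw [this]
      simpa using hz⟩
    have hZP : Z ≤ P := by
      rw [Subgroup.zpowers_le]; exact hu
    have hlt : Nat.card (G ⧸ Z) < n := by
      rw [← hcard, ← Z.index_eq_card]
      have h1 := Z.index_mul_card
      have h2 : 1 < Nat.card Z := by
        rw [Nat.card_zpowers]
        rcases Nat.lt_or_ge 1 (orderOf u) with h3 | h3
        · exact h3
        · exfalso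
          have := orderOf_pos u
          exact hu1 (orderOf_eq_one_iff.1 (by omega))
      have h3 : 0 < Z.index := Nat.pos_of_ne_zero Subgroup.index_ne_zero_of_finite
      nlinarith
    have hq := ih _ hlt (G ⧸ Z) rfl (lt_quotient h Z)
      (P.mapSurjective (QuotientGroup.mk'_surjective Z))
    have h1 : ((P : Subgroup G).map (QuotientGroup.mk' Z)).Normal := hq
    have h2 : (((P : Subgroup G).map (QuotientGroup.mk' Z)).comap (QuotientGroup.mk' Z)).Normal :=
      h1.comap _
    rw [Subgroup.comap_map_eq, QuotientGroup.ker_mk', sup_eq_left.2 hZP] at h2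
    exact h2
  · push Not at hcen
    have hC : ∀ u ∈ P, u ≠ 1 → ∀ g : G, g⁻¹ * u * g ∈ P → g ∈ Subgroup.normalizer ((P : Subgroup G) : Set G) := by
      intro u hu hu1 g hg
      let C : Subgroup G := Subgroup.centralizer ({u} : Set G)
      have hClt : Nat.card C < n := by
        rw [← hcard]
        refine lt_of_le_of_ne (Subgroup.card_le_card_group C) fun he => ?_
        have htop : C = ⊤ := Subgroup.eq_top_of_card_eq C he
        refine hcen u hu hu1 (Subgroup.mem_center_iff.2 fun x => ?_)
        have hx : x ∈ C := htop ▸ Subgroup.mem_top x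
        exact (Subgroup.mem_centralizer_singleton_iff.1 hx).symm ▸ rfl
      have hle : ∀ Q : Sylow p G, u ∈ Q → (Q : Subgroup G) ≤ C := fun Q hQ x hx =>
        Subgroup.mem_centralizer_singleton_iff.2 (hcomm Q x hx u hQ)
      have huQ : u ∈ g • P := by
        show u ∈ (MulAut.conj g • (P : Subgroup G) : Subgroup G)
        rw [Subgroup.mem_pointwise_smul_iff_inv_smul_mem]
        have he : (MulAut.conj g)⁻¹ • u = g⁻¹ * u * g := by
          rw [← map_inv, MulAut.smul_def, MulAut.conj_apply, inv_inv]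
        rw [he]
        exact hg
      have hn := ih _ hClt C rfl (lt_subgroup h C)
      have h1 := hn (P.subtype (hle P hu))
      have := Sylow.unique_of_normal _ h1
      have h2 : P.subtype (hle P hu) = (g • P).subtype (hle _ huQ) := Subsingleton.elim _ _
      have h3 : P = g • P := Sylow.subtype_injective h2
      exact Sylow.smul_eq_iff_mem_normalizer.1 h3.symm
    have := Fintype.ofFinite (Subgroup.normalizer ((P : Subgroup G) : Set G))
    refine ti_normal (P : Subgroup G) _ rfl hC ?_ ?_
    · intro x hx hx1 g hg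
      have h1 : IsPGroup p (Subgroup.zpowers (g⁻¹ * x * g)) := by
        obtain ⟨k, hk⟩ := P.2 ⟨x, hx⟩
        have hk' : x ^ p ^ k = 1 := congrArg Subtype.val hk
        have hz : (g⁻¹ * x * g) ^ p ^ k = 1 := by
          have := conj_pow (i := p ^ k) (a := g⁻¹) (b := x)
          rw [inv_inv] at this
          rw [this, hk']; group
        rintro ⟨y, hy⟩
        obtain ⟨j, rfl⟩ := Subgroup.mem_zpowers_iff.1 hy
        refine ⟨k, Subtype.ext ?_⟩
        show ((g⁻¹ * x * g) ^ j) ^ p ^ k = 1
        rw [← zpow_natCast, ← zpow_mul, mul_comm, zpow_mul, zpow_natCast, hz, one_zpow]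
      have h3 : g⁻¹ * x * g ∈ Subgroup.zpowers (g⁻¹ * x * g) ⊓ Subgroup.normalizer (P : Set G) :=
        ⟨Subgroup.mem_zpowers _, hg⟩
      rw [h1.inf_normalizer_sylow P] at h3
      exact h3.2
    · intro χ hχ hχ1 m hm _
      have h1 := h ⟨χ, hχ⟩
      have h2 : charDegree χ = m := charDegree_of_eq hm
      have h3 : m < p := h2 ▸ h1
      refine h3.trans_le (Nat.le_of_dvd Nat.card_pos ?_)
      obtain ⟨k, hk⟩ := (IsPGroup.iff_card (p := p)).1 P.2
      have hk0 : k ≠ 0 := by
        rintro rfl
        rw [pow_zero] at hk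
        exact hbot (Subgroup.card_eq_one.1 hk)
      rw [hk]
      exact dvd_pow_self p hk0

end Cfsg.Agent.H589.SmallDegree
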