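import Cfsg.Agent.H589.RegCount
import Cfsg.Agent.S0904
import Cfsg.Agent.SmallSimple.SylowCount
import Cfsg.Agent.SmallSimple.SelfCentPrime

/-!
# The simple groups of the eight small orders have many `p`-regular elements
-/

set_option autoImplicit false

open Cfsg

namespace Cfsg.Agent.H589.ThreeSimple

open Cfsg.Agent.H589.RegCount Subgroup

universe u

variable {G : Type u} [Group G] [Finite G]

/-- A simple group of order `2^a 3^b r` contains a self-centralizing element of order `r`. -/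
theorem exists_self_cent [IsSimpleGroup G] {a b r : ℕ} (hr : r.Prime) (h2 : 2 ≠ r)
    (h3 : 3 ≠ r) (hcard : Nat.card G = 2 ^ a * 3 ^ b * r) :
    ∃ z : G, orderOf z = r ∧ centralizer ({z} : Set G) = zpowers z := by
  have : Fact r.Prime := ⟨hr⟩
  have hdvd : r ∣ Nat.card G := by rw [hcard]; exact dvd_mul_left _ _
  obtain ⟨z, hz⟩ := exists_prime_orderOf_dvd_card' r hdvd
  have hpg : IsPGroup r (zpowers z) := by
    apply IsPGroup.of_card (n := 1)
    rw [Nat.card_zpowers, hz, pow_one]
  obtain ⟨P, hP⟩ := hpg.exists_le_sylow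
  have hrr : (Nat.card G).factorization r = 1 := by
    rw [hcard, Nat.factorization_mul (by positivity) hr.ne_zero,
      Nat.factorization_mul (by positivity) (by positivity), Nat.Prime.factorization_pow
      Nat.prime_two, Nat.Prime.factorization_pow Nat.prime_three]
    simp [hr.factorization_self, h2, h3]
  have hPc : Nat.card (P : Subgroup G) = r := by
    rw [P.card_eq_multiplicity, hrr, pow_one]
  have hPz : zpowers z = (P : Subgroup G) := by
    apply Subgroup.eq_of_le_of_card_ge hP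
    rw [hPc, Nat.card_zpowers, hz]
  have hC := Cfsg.Agent.S0904.result 2 3 r a b Nat.prime_two Nat.prime_three (by norm_num) h2 h3
    hcard P
  refine ⟨z, hz, ?_⟩
  have h1 : centralizer ((zpowers z : Subgroup G) : Set G) = zpowers z := by
    rw [hPz]; exact hC
  rw [Cfsg.Agent.SmallSimple.SelfCentPrime.centralizer_zpowers] at h1
  exact h1

section count

variable {r : ℕ} {z : G}

/-- An element of order divisible by `r` has order `r`. -/
theorem orderOf_eq_of_dvd [hr : Fact r.Prime] (hz : orderOf z = r)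
    (hC : centralizer ({z} : Set G) = zpowers z) {x : G} (hx : r ∣ orderOf x) : orderOf x = r := by
  obtain ⟨k, hk⟩ := hx
  have hx0 : 0 < orderOf x := orderOf_pos x
  have hk0 : k ≠ 0 := by rintro rfl; rw [hk, mul_zero] at hx0; exact absurd hx0 (lt_irrefl _)
  have hy : orderOf (x ^ k) = r := by
    rw [orderOf_pow_of_dvd hk0 (by rw [hk]; exact dvd_mul_left _ _), hk,
      Nat.mul_div_cancel _ (Nat.pos_of_ne_zero hk0)]
  obtain ⟨y, hyz, hy1, hc⟩ :=
    Cfsg.Agent.SmallSimple.SelfCentPrime.exists_conj_mem hz hC hy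
  obtain ⟨g, hg⟩ := isConj_iff.1 hc
  have hCy := Cfsg.Agent.SmallSimple.SelfCentPrime.centralizer_eq_of_mem hz hC hyz hy1
  have h1 : g * x * g⁻¹ ∈ centralizer ({y} : Set G) := by
    rw [mem_centralizer_singleton_iff]
    rw [← hg]
    have : g * x * g⁻¹ * (g * x ^ k * g⁻¹) = g * (x * x ^ k) * g⁻¹ := by group
    rw [this]
    have : g * x ^ k * g⁻¹ * (g * x * g⁻¹) = g * (x ^ k * x) * g⁻¹ := by group
    rw [this, ← pow_succ, ← pow_succ']
  rw [hCy] at h1
  have h2 : orderOf (g * x * g⁻¹) = orderOf x := by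
    have := orderOf_injective (MulAut.conj g).toMonoidHom (MulAut.conj g).injective x
    simpa using this
  have h3 : orderOf (g * x * g⁻¹) ∣ r := by
    have h4 := Subgroup.orderOf_dvd_natCard (zpowers z) h1
    rwa [Nat.card_zpowers z, hz] at h4
  rw [h2] at h3
  exact Nat.dvd_antisymm h3 ⟨k, hk⟩

/-- Elements of order `r` and the identity are regular for the other primes. -/
theorem cnt_ge {p : ℕ} (hp : p.Prime) (hr : r.Prime) (hpr : p ≠ r) :
    Nat.card {x : G // orderOf x = r} + 1 ≤ cnt p G := by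
  classical
  have := Fintype.ofFinite G
  unfold cnt
  rw [Nat.card_eq_fintype_card, Nat.card_eq_fintype_card, Fintype.card_subtype,
    Fintype.card_subtype]
  have h1 : (1 : G) ∉ Finset.univ.filter (fun x : G => orderOf x = r) := by
    simp only [Finset.mem_filter, Finset.mem_univ, true_and, orderOf_one]
    exact hr.one_lt.ne
  rw [← Finset.card_insert_of_notMem h1]
  apply Finset.card_le_card
  intro x hx
  rw [Finset.mem_insert] at hx
  simp only [Finset.mem_filter, Finset.mem_univ, true_and] at hx ⊢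
  rcases hx with rfl | hx
  · rw [orderOf_one]
    exact hp.one_lt.ne' ∘ Nat.dvd_one.1
  · rw [hx]
    intro h
    exact hpr ((Nat.prime_dvd_prime_iff_eq hp hr).1 h)

theorem cnt_self [hr : Fact r.Prime] (hz : orderOf z = r)
    (hC : centralizer ({z} : Set G) = zpowers z) :
    cnt r G + Nat.card {x : G // orderOf x = r} = Nat.card G := by
  classical
  have := Fintype.ofFinite G
  unfold cnt
  rw [Nat.card_eq_fintype_card, Nat.card_eq_fintype_card, Fintype.card_subtype,
    Fintype.card_subtype, Nat.card_eq_fintype_card]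
  have h1 : (Finset.univ.filter (fun x : G => orderOf x = r)) =
      Finset.univ.filter (fun x : G => ¬ ¬ r ∣ orderOf x) := by
    ext x
    simp only [Finset.mem_filter, Finset.mem_univ, true_and, not_not]
    constructor
    · intro h
      rw [h]
    · exact orderOf_eq_of_dvd hz hC
  rw [h1, Finset.card_filter_add_card_filter_not]
  rfl

end count

/-- In a simple group of order 168 there are more than 56 elements of order prime to 3. -/
theorem not_168 [IsSimpleGroup G] (hG : Nat.card G = 168)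
    (h7 : 48 ≤ Nat.card {x : G // orderOf x = 7}) : cnt 3 G ≠ 56 := by
  classical
  have := Fintype.ofFinite G
  have : Fact (Nat.Prime 2) := ⟨Nat.prime_two⟩
  intro hcon
  have hn : Nat.card (Sylow 2 G) ≠ 1 :=
    Cfsg.Agent.SmallSimple.SylowCount.card_sylow_ne_one (by rw [hG]; norm_num)
      (by rw [hG]; norm_num)
  obtain ⟨P⟩ : Nonempty (Sylow 2 G) := inferInstance
  have hP8 : Nat.card (P : Subgroup G) = 8 := by
    rw [P.card_eq_multiplicity, hG]
    have : (168 : ℕ).factorization 2 = 3 := by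
      rw [show (168 : ℕ) = 2 ^ 3 * 21 by norm_num, Nat.factorization_mul (by norm_num) (by norm_num),
        Nat.Prime.factorization_pow Nat.prime_two]
      simp [Nat.factorization_eq_zero_of_not_dvd (show ¬ 2 ∣ 21 by norm_num)]
    rw [this]
    norm_num
  obtain ⟨P', hP'⟩ : ∃ P' : Sylow 2 G, P' ≠ P := by
    by_contra hno
    push Not at hno
    apply hn
    rw [Nat.card_eq_one_iff_unique]
    exact ⟨⟨fun a b => (hno a).trans (hno b).symm⟩, ⟨P⟩⟩
  obtain ⟨y, hy, hyP⟩ : ∃ y ∈ (P' : Subgroup G), y ∉ (P : Subgroup G) := by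
    by_contra hno
    push Not at hno
    exact hP' (Sylow.ext (P'.3 P.2 hno).symm)
  have hord : ∀ (Q : Sylow 2 G) (x : G), x ∈ (Q : Subgroup G) → ∃ k, orderOf x = 2 ^ k := by
    intro Q x hx
    obtain ⟨k, hk⟩ := IsPGroup.iff_orderOf.1 Q.isPGroup' ⟨x, hx⟩
    exact ⟨k, by rwa [← Subgroup.orderOf_coe] at hk⟩
  have h3 : ∀ k, ¬ 3 ∣ 2 ^ k := fun k h => by
    have := Nat.prime_three.dvd_of_dvd_pow h
    norm_num at this
  have h72 : ∀ k, 2 ^ k ≠ 7 := fun k h => by
    have h7' : 7 ∣ 2 ^ k := ⟨1, by rw [h]⟩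
    have := (show Nat.Prime 7 by norm_num).dvd_of_dvd_pow h7'
    norm_num at this
  set A : Finset G := Finset.univ.filter (fun x : G => orderOf x = 7) with hA
  set B : Finset G := Finset.univ.filter (fun x : G => x ∈ (P : Subgroup G)) with hB
  have hAc : 48 ≤ A.card := by
    rw [Nat.card_eq_fintype_card, Fintype.card_subtype] at h7
    exact h7
  have hBc : B.card = 8 := by
    rw [← hP8, Nat.card_eq_fintype_card, Fintype.card_subtype]
  have hdisj : Disjoint A B := by
    rw [Finset.disjoint_left]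
    intro x hxA hxB
    simp only [hA, hB, Finset.mem_filter, Finset.mem_univ, true_and] at hxA hxB
    obtain ⟨k, hk⟩ := hord P x hxB
    exact h72 k (hk.symm.trans hxA)
  have hyA : y ∉ A ∪ B := by
    rw [Finset.mem_union, not_or]
    simp only [hA, hB, Finset.mem_filter, Finset.mem_univ, true_and]
    refine ⟨?_, hyP⟩
    intro h
    obtain ⟨k, hk⟩ := hord P' y hy
    exact h72 k (hk.symm.trans h)
  have h1 : (insert y (A ∪ B)).card ≤ cnt 3 G := by
    unfold cnt
    rw [Nat.card_eq_fintype_card, Fintype.card_subtype]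
    apply Finset.card_le_card
    intro x hx
    rw [Finset.mem_insert, Finset.mem_union] at hx
    simp only [hA, hB, Finset.mem_filter, Finset.mem_univ, true_and] at hx ⊢
    rcases hx with rfl | hx | hx
    · obtain ⟨k, hk⟩ := hord P' x hy
      rw [hk]; exact h3 k
    · rw [hx]; norm_num
    · obtain ⟨k, hk⟩ := hord P x hx
      rw [hk]; exact h3 k
  rw [Finset.card_insert_of_notMem hyA, Finset.card_union_of_disjoint hdisj] at h1
  omega

/-- `pp` of an explicit product. -/
theorem pp_eq {p a m n : ℕ} (hp : p.Prime) (hn : n = p ^ a * m) (hm : ¬ p ∣ m) : pp p n = m := by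
  unfold pp
  have hm0 : m ≠ 0 := by rintro rfl; exact hm (dvd_zero _)
  have h1 : n.factorization p = a := by
    rw [hn, Nat.factorization_mul (pow_ne_zero _ hp.ne_zero) hm0, hp.factorization_pow]
    simp [Nat.factorization_eq_zero_of_not_dvd hm]
  rw [h1, hn, Nat.mul_div_cancel_left _ (pow_pos hp.pos _)]

/-- **The eight orders.** -/
theorem cnt_ne [IsSimpleGroup G] {p : ℕ} (hp : p.Prime) (hdvd : p ∣ Nat.card G)
    (h : Nat.card G = 60 ∨ Nat.card G = 168 ∨ Nat.card G = 360 ∨ Nat.card G = 504 ∨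
      Nat.card G = 2448 ∨ Nat.card G = 5616 ∨ Nat.card G = 6048 ∨ Nat.card G = 25920) :
    cnt p G ≠ pp p (Nat.card G) := by
  -- general facts for the prime `r`
  have key : ∀ (a b r : ℕ), r.Prime → 2 ≠ r → 3 ≠ r → Nat.card G = 2 ^ a * 3 ^ b * r →
      Nat.card G ≠ r →
      (cnt r G ≠ pp r (Nat.card G)) ∧
      (∃ c, Nat.card G ≤ c * r ∧ (r - 1) * (r + 1) ≤ c ∧
        c = Nat.card {x : G // orderOf x = r} ∧ ∀ q : ℕ, q.Prime → q ≠ r → c + 1 ≤ cnt q G) := by
    intro a b r hr h2 h3 hcard hne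
    have : Fact r.Prime := ⟨hr⟩
    obtain ⟨z, hz, hC⟩ := exists_self_cent hr h2 h3 hcard
    have hdr : r ∣ Nat.card G := by rw [hcard]; exact dvd_mul_left _ _
    have hrn : ¬ r ∣ 2 ^ a * 3 ^ b := by
      intro h
      rcases hr.dvd_mul.1 h with h | h
      · exact h2 ((Nat.prime_dvd_prime_iff_eq hr Nat.prime_two).1 (hr.dvd_of_dvd_pow h)).symm
      · exact h3 ((Nat.prime_dvd_prime_iff_eq hr Nat.prime_three).1 (hr.dvd_of_dvd_pow h)).symm
    have hc := Cfsg.Agent.SmallSimple.SelfCentPrime.card_orderOf_eq hz hC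
    have hcl := Cfsg.Agent.SmallSimple.SelfCentPrime.card_classes_mul hz hC
    have hn1 : Nat.card (Sylow r G) ≠ 1 :=
      Cfsg.Agent.SmallSimple.SylowCount.card_sylow_ne_one hdr hne
    have hnmod : Nat.card (Sylow r G) ≡ 1 [MOD r] := card_sylow_modEq_one r G
    have hnge : r + 1 ≤ Nat.card (Sylow r G) := by
      by_contra hlt
      rw [not_le] at hlt
      have hpos : 0 < Nat.card (Sylow r G) := Nat.card_pos
      have h1 : r ∣ Nat.card (Sylow r G) - 1 := (Nat.modEq_iff_dvd' hpos).1 hnmod.symm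
      have h2 : Nat.card (Sylow r G) - 1 ≠ 0 := by omega
      have h3 := Nat.le_of_dvd (Nat.pos_of_ne_zero h2) h1
      omega
    have hsq : ¬ r ^ 2 ∣ Nat.card G := by
      intro h
      apply hrn
      rw [hcard, sq] at h
      exact Nat.dvd_of_mul_dvd_mul_right hr.pos h
    have hB := Cfsg.Agent.SmallSimple.SylowCount.card_sylow_mul_ne_card hdr hne hsq
    refine ⟨?_, Nat.card {x : G // orderOf x = r}, ?_, ?_, rfl, ?_⟩
    · intro hcon
      have h1 := cnt_self hz hC
      have hpp : pp r (Nat.card G) = 2 ^ a * 3 ^ b :=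
        pp_eq (a := 1) hr (by rw [hcard, pow_one, mul_comm]) hrn
      rw [hcon, hpp, hc] at h1
      apply hB
      have h2 : 2 ^ a * 3 ^ b + Nat.card (Sylow r G) * (r - 1) = 2 ^ a * 3 ^ b * r :=
        h1.trans hcard
      have hr1 := hr.one_lt
      obtain ⟨s, rfl⟩ : ∃ s, r = s + 1 := ⟨r - 1, by omega⟩
      rw [Nat.add_sub_cancel] at h2
      have h4 : Nat.card (Sylow (s + 1) G) * s = 2 ^ a * 3 ^ b * s := by
        have : 2 ^ a * 3 ^ b * (s + 1) = 2 ^ a * 3 ^ b + 2 ^ a * 3 ^ b * s := by ring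
        omega
      have h5 : Nat.card (Sylow (s + 1) G) = 2 ^ a * 3 ^ b :=
        Nat.eq_of_mul_eq_mul_right (by omega) h4
      rw [h5, hcard]
    · rw [hc, ← hcl]
      apply Nat.le_mul_of_pos_right
      have : Nonempty {c : ConjClasses G // ∃ g : G, ConjClasses.mk g = c ∧ orderOf g = r} :=
        ⟨⟨ConjClasses.mk z, z, rfl, hz⟩⟩
      exact Nat.card_pos
    · rw [hc, mul_comm (r - 1)]
      exact Nat.mul_le_mul_right _ hnge
    · intro q hq hqr
      exact cnt_ge hq hr hqr
  have hpp : ∀ (q a m : ℕ), q.Prime → Nat.card G = q ^ a * m → ¬ q ∣ m →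
      pp q (Nat.card G) = m := fun q a m hq h1 h2 => pp_eq hq h1 h2
  rcases h with h | h | h | h | h | h | h | h
  · obtain ⟨h1, c, h2, h3, hc, h4⟩ := key 2 1 5 (by norm_num) (by norm_num) (by norm_num)
      (by rw [h]; norm_num) (by rw [h]; norm_num)
    rw [h] at hdvd
    have hpd : p = 2 ∨ p = 3 ∨ p = 5 := by
      have : (60 : ℕ) = 2 ^ 2 * 3 ^ 1 * 5 := by norm_num
      rw [this, hp.dvd_mul, hp.dvd_mul] at hdvd
      rcases hdvd with (h' | h') | h'
      · exact Or.inl ((Nat.prime_dvd_prime_iff_eq hp Nat.prime_two).1 (hp.dvd_of_dvd_pow h'))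
      · exact Or.inr (Or.inl ((Nat.prime_dvd_prime_iff_eq hp Nat.prime_three).1
          (hp.dvd_of_dvd_pow h')))
      · exact Or.inr (Or.inr ((Nat.prime_dvd_prime_iff_eq hp (by norm_num)).1 h'))
    rcases hpd with rfl | rfl | rfl
    · have h5 := h4 2 (by norm_num) (by norm_num)
      rw [hpp 2 2 15 (by norm_num) (by rw [h]; norm_num) (by norm_num)]
      omega
    · have h5 := h4 3 (by norm_num) (by norm_num)
      rw [hpp 3 1 20 (by norm_num) (by rw [h]; norm_num) (by norm_num)]
      omega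
    · exact h1
  · obtain ⟨h1, c, h2, h3, hc, h4⟩ := key 3 1 7 (by norm_num) (by norm_num) (by norm_num)
      (by rw [h]; norm_num) (by rw [h]; norm_num)
    rw [h] at hdvd
    have hpd : p = 2 ∨ p = 3 ∨ p = 7 := by
      have : (168 : ℕ) = 2 ^ 3 * 3 ^ 1 * 7 := by norm_num
      rw [this, hp.dvd_mul, hp.dvd_mul] at hdvd
      rcases hdvd with (h' | h') | h'
      · exact Or.inl ((Nat.prime_dvd_prime_iff_eq hp Nat.prime_two).1 (hp.dvd_of_dvd_pow h'))
      · exact Or.inr (Or.inl ((Nat.prime_dvd_prime_iff_eq hp Nat.prime_three).1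
          (hp.dvd_of_dvd_pow h')))
      · exact Or.inr (Or.inr ((Nat.prime_dvd_prime_iff_eq hp (by norm_num)).1 h'))
    rcases hpd with rfl | rfl | rfl
    · have h5 := h4 2 (by norm_num) (by norm_num)
      rw [hpp 2 3 21 (by norm_num) (by rw [h]; norm_num) (by norm_num)]
      omega
    · rw [hpp 3 1 56 (by norm_num) (by rw [h]; norm_num) (by norm_num)]
      exact not_168 h (by omega)
    · exact h1
  · obtain ⟨h1, c, h2, h3, hc, h4⟩ := key 3 2 5 (by norm_num) (by norm_num) (by norm_num)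
      (by rw [h]; norm_num) (by rw [h]; norm_num)
    rw [h] at hdvd
    have hpd : p = 2 ∨ p = 3 ∨ p = 5 := by
      have : (360 : ℕ) = 2 ^ 3 * 3 ^ 2 * 5 := by norm_num
      rw [this, hp.dvd_mul, hp.dvd_mul] at hdvd
      rcases hdvd with (h' | h') | h'
      · exact Or.inl ((Nat.prime_dvd_prime_iff_eq hp Nat.prime_two).1 (hp.dvd_of_dvd_pow h'))
      · exact Or.inr (Or.inl ((Nat.prime_dvd_prime_iff_eq hp Nat.prime_three).1
          (hp.dvd_of_dvd_pow h')))
      · exact Or.inr (Or.inr ((Nat.prime_dvd_prime_iff_eq hp (by norm_num)).1 h'))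
    rcases hpd with rfl | rfl | rfl
    · have h5 := h4 2 (by norm_num) (by norm_num)
      rw [hpp 2 3 45 (by norm_num) (by rw [h]; norm_num) (by norm_num)]
      omega
    · have h5 := h4 3 (by norm_num) (by norm_num)
      rw [hpp 3 2 40 (by norm_num) (by rw [h]; norm_num) (by norm_num)]
      omega
    · exact h1
  · obtain ⟨h1, c, h2, h3, hc, h4⟩ := key 3 2 7 (by norm_num) (by norm_num) (by norm_num)
      (by rw [h]; norm_num) (by rw [h]; norm_num)
    rw [h] at hdvd
    have hpd : p = 2 ∨ p = 3 ∨ p = 7 := by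
      have : (504 : ℕ) = 2 ^ 3 * 3 ^ 2 * 7 := by norm_num
      rw [this, hp.dvd_mul, hp.dvd_mul] at hdvd
      rcases hdvd with (h' | h') | h'
      · exact Or.inl ((Nat.prime_dvd_prime_iff_eq hp Nat.prime_two).1 (hp.dvd_of_dvd_pow h'))
      · exact Or.inr (Or.inl ((Nat.prime_dvd_prime_iff_eq hp Nat.prime_three).1
          (hp.dvd_of_dvd_pow h')))
      · exact Or.inr (Or.inr ((Nat.prime_dvd_prime_iff_eq hp (by norm_num)).1 h'))
    rcases hpd with rfl | rfl | rfl
    · have h5 := h4 2 (by norm_num) (by norm_num)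
      rw [hpp 2 3 63 (by norm_num) (by rw [h]; norm_num) (by norm_num)]
      omega
    · have h5 := h4 3 (by norm_num) (by norm_num)
      rw [hpp 3 2 56 (by norm_num) (by rw [h]; norm_num) (by norm_num)]
      omega
    · exact h1
  · obtain ⟨h1, c, h2, h3, hc, h4⟩ := key 4 2 17 (by norm_num) (by norm_num) (by norm_num)
      (by rw [h]; norm_num) (by rw [h]; norm_num)
    rw [h] at hdvd
    have hpd : p = 2 ∨ p = 3 ∨ p = 17 := by
      have : (2448 : ℕ) = 2 ^ 4 * 3 ^ 2 * 17 := by norm_num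
      rw [this, hp.dvd_mul, hp.dvd_mul] at hdvd
      rcases hdvd with (h' | h') | h'
      · exact Or.inl ((Nat.prime_dvd_prime_iff_eq hp Nat.prime_two).1 (hp.dvd_of_dvd_pow h'))
      · exact Or.inr (Or.inl ((Nat.prime_dvd_prime_iff_eq hp Nat.prime_three).1
          (hp.dvd_of_dvd_pow h')))
      · exact Or.inr (Or.inr ((Nat.prime_dvd_prime_iff_eq hp (by norm_num)).1 h'))
    rcases hpd with rfl | rfl | rfl
    · have h5 := h4 2 (by norm_num) (by norm_num)
      rw [hpp 2 4 153 (by norm_num) (by rw [h]; norm_num) (by norm_num)]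
      omega
    · have h5 := h4 3 (by norm_num) (by norm_num)
      rw [hpp 3 2 272 (by norm_num) (by rw [h]; norm_num) (by norm_num)]
      omega
    · exact h1
  · obtain ⟨h1, c, h2, h3, hc, h4⟩ := key 4 3 13 (by norm_num) (by norm_num) (by norm_num)
      (by rw [h]; norm_num) (by rw [h]; norm_num)
    rw [h] at hdvd
    have hpd : p = 2 ∨ p = 3 ∨ p = 13 := by
      have : (5616 : ℕ) = 2 ^ 4 * 3 ^ 3 * 13 := by norm_num
      rw [this, hp.dvd_mul, hp.dvd_mul] at hdvd
      rcases hdvd with (h' | h') | h'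
      · exact Or.inl ((Nat.prime_dvd_prime_iff_eq hp Nat.prime_two).1 (hp.dvd_of_dvd_pow h'))
      · exact Or.inr (Or.inl ((Nat.prime_dvd_prime_iff_eq hp Nat.prime_three).1
          (hp.dvd_of_dvd_pow h')))
      · exact Or.inr (Or.inr ((Nat.prime_dvd_prime_iff_eq hp (by norm_num)).1 h'))
    rcases hpd with rfl | rfl | rfl
    · have h5 := h4 2 (by norm_num) (by norm_num)
      rw [hpp 2 4 351 (by norm_num) (by rw [h]; norm_num) (by norm_num)]
      omega
    · have h5 := h4 3 (by norm_num) (by norm_num)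
      rw [hpp 3 3 208 (by norm_num) (by rw [h]; norm_num) (by norm_num)]
      omega
    · exact h1
  · obtain ⟨h1, c, h2, h3, hc, h4⟩ := key 5 3 7 (by norm_num) (by norm_num) (by norm_num)
      (by rw [h]; norm_num) (by rw [h]; norm_num)
    rw [h] at hdvd
    have hpd : p = 2 ∨ p = 3 ∨ p = 7 := by
      have : (6048 : ℕ) = 2 ^ 5 * 3 ^ 3 * 7 := by norm_num
      rw [this, hp.dvd_mul, hp.dvd_mul] at hdvd
      rcases hdvd with (h' | h') | h'
      · exact Or.inl ((Nat.prime_dvd_prime_iff_eq hp Nat.prime_two).1 (hp.dvd_of_dvd_pow h'))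
      · exact Or.inr (Or.inl ((Nat.prime_dvd_prime_iff_eq hp Nat.prime_three).1
          (hp.dvd_of_dvd_pow h')))
      · exact Or.inr (Or.inr ((Nat.prime_dvd_prime_iff_eq hp (by norm_num)).1 h'))
    rcases hpd with rfl | rfl | rfl
    · have h5 := h4 2 (by norm_num) (by norm_num)
      rw [hpp 2 5 189 (by norm_num) (by rw [h]; norm_num) (by norm_num)]
      omega
    · have h5 := h4 3 (by norm_num) (by norm_num)
      rw [hpp 3 3 224 (by norm_num) (by rw [h]; norm_num) (by norm_num)]
      omega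
    · exact h1
  · obtain ⟨h1, c, h2, h3, hc, h4⟩ := key 6 4 5 (by norm_num) (by norm_num) (by norm_num)
      (by rw [h]; norm_num) (by rw [h]; norm_num)
    rw [h] at hdvd
    have hpd : p = 2 ∨ p = 3 ∨ p = 5 := by
      have : (25920 : ℕ) = 2 ^ 6 * 3 ^ 4 * 5 := by norm_num
      rw [this, hp.dvd_mul, hp.dvd_mul] at hdvd
      rcases hdvd with (h' | h') | h'
      · exact Or.inl ((Nat.prime_dvd_prime_iff_eq hp Nat.prime_two).1 (hp.dvd_of_dvd_pow h'))
      · exact Or.inr (Or.inl ((Nat.prime_dvd_prime_iff_eq hp Nat.prime_three).1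
          (hp.dvd_of_dvd_pow h')))
      · exact Or.inr (Or.inr ((Nat.prime_dvd_prime_iff_eq hp (by norm_num)).1 h'))
    rcases hpd with rfl | rfl | rfl
    · have h5 := h4 2 (by norm_num) (by norm_num)
      rw [hpp 2 6 405 (by norm_num) (by rw [h]; norm_num) (by norm_num)]
      omega
    · have h5 := h4 3 (by norm_num) (by norm_num)
      rw [hpp 3 4 320 (by norm_num) (by rw [h]; norm_num) (by norm_num)]
      omega
    · exact h1

end Cfsg.Agent.H589.ThreeSimple
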